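import Cfsg.Agent.Lib.Conway.PSUK.Act
import Cfsg.Agent.Lib.Conway.PSUK.Fields25
import Cfsg.Agent.Lib.Conway.U35C.Data
import Cfsg.Agent.Lib.TC.Lower
import Cfsg.Agent.Lib.TC.Pack
import Cfsg.Agent.S0280
import Cfsg.Agent.S0283

/-!
# The projective unitary group of dimension three over twenty-five elements on its isotropic points
-/

set_option autoImplicit false

namespace Cfsg.Agent.Lib.Conway.U35C

open Cfsg.Agent.Lib.TC Cfsg.Agent.Lib.TC.Fast Cfsg.Agent.Lib.Mat Cfsg.Agent.Lib.Conway.PSUK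

/-- The field. -/
abbrev K := K25

/-- The numbering. -/
noncomputable abbrev F : CF K := cf25

theorem hK : Fintype.card K = 5 ^ 2 := card_K25

theorem card_K : (25 : ℕ) = Fintype.card K := by
  rw [hK]
  norm_num

theorem hn : (3 : ℕ) ≠ 0 := by norm_num

/-- The group. -/
abbrev PS := Cfsg.PSU 3 K 5

/-- The matrices of the generators. -/
noncomputable def B (j : ℕ) : ℕ := ML.getD j 0
/-- The representatives. -/
noncomputable def rp (n : ℕ) : ℕ := Nat.land (Nat.shiftRight rpP (Nat.mul 14 n)) 16383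
/-- The table. -/
noncomputable def tO (n g : ℕ) : ℕ := Nat.land (Nat.shiftRight tOP (Nat.mul 10 (Nat.add (Nat.mul 6 n) g))) 1023
/-- The scalars. -/
noncomputable def dT (n g : ℕ) : ℕ := Nat.land (Nat.shiftRight dTP (Nat.mul 5 (Nat.add (Nat.mul 6 n) g))) 31
/-- All multiples. -/
noncomputable def gM (k : ℕ) : ℕ := scal F 3 (Nat.add (Nat.mod k 24) 1) (rp (Nat.div k 24))
/-- The lines of the frame. -/
noncomputable def Bn (j : ℕ) : ℕ := BL.getD j 0

theorem hB : ∀ j, j < 6 → powP F 3 (B j) 5 = oneP F 3 ∧ mm F 3 (trP F 3 (B j)) (conjP F 3 5 (B j)) = oneP F 3 := by decide +kernel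

theorem hL : ∀ m, m < 126 → ∀ g, g < 6 → tO m g < 126 ∧ dT m g < 25 ∧ dT m g ≠ 0 ∧ mv F 3 (B g) (rp m) = scal F 3 (dT m g) (rp (tO m g)) := by
  decide +kernel

theorem hrp : ∀ m, m < 126 → rp m < 25 ^ 3 := by decide +kernel

theorem chkU_ok : uniqF gM 3024 0 = true := by decide +kernel

theorem hPcol : ∀ j i : Fin 3, toM F 3 Pp i j = toV F 3 (rp (Bn j)) i := by decide +kernel
theorem hBlt : ∀ j, j < 3 → Bn j < 126 := by decide +kernel
theorem hQPm : mm F 3 Qp Pp = oneP F 3 := by decide +kernel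
theorem hPa : mv F 3 Pp aN = rp uN := by decide +kernel
theorem ha0 : ∀ i : Fin 3, toV F 3 aN i ≠ 0 := by decide +kernel
theorem huN : uN < 126 := by decide +kernel

theorem gM_eq (a b : ℕ) (hb : b + 1 < F.q) : gM ((F.q - 1) * a + b) = scal F 3 (b + 1) (rp a) := by
  have hq : F.q = 25 := rfl
  rw [hq] at hb ⊢
  show scal F 3 (Nat.add (Nat.mod (24 * a + b) 24) 1) (rp (Nat.div (24 * a + b) 24)) = _
  have e1 : Nat.mod (24 * a + b) 24 = b := by
    show (24 * a + b) % 24 = b
    omega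
  have e2 : Nat.div (24 * a + b) 24 = a := by
    show (24 * a + b) / 24 = a
    omega
  rw [e1, e2]

/-- The data. -/
noncomputable def Dt : UData F 3 5 where
  ng := 6
  N := 126
  B := B
  rp := rp
  tO := tO
  dT := dT
  gM := gM
  hdet j hj := det_of_pow F (B j) 5 (hB j hj).1 powone25
  hunit j hj u v := herm_pres F fr25 (fun _ => rfl) (B j) (hB j hj).2 u v
  hL m g hm hg := hL m hm g hg
  hrp := hrp
  hgM a b hb := gM_eq a b hb
  hU k k' hk hk' e := (uniqF_spec gM 3024 0 chkU_ok).2 k k' hk hk' e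
  Pp := Pp
  Qp := Qp
  Bn := Bn
  aN := aN
  uN := uN
  hPcol := hPcol
  hBlt := hBlt
  hQPm := hQPm
  hPa := hPa
  ha0 := ha0
  huN := huN

/-- The permutations of the lines. -/
noncomputable def tb : Tbl where
  n := 126
  ng := 6
  T := tO
  inv := fun g => Nat.xor g 1
  hT := by decide +kernel
  hinv := by decide +kernel
  hTT := by decide +kernel

theorem hlet : ∀ w ∈ SW, ∀ g ∈ w, g < tb.ng := by decide +kernel

theorem L3 : 1 ≤ Nat.card (tb.gp (SW.drop 23)) := Tbl.gp_drop_length tb SW 23 (by decide +kernel)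

theorem fix2 : relsOk tO (SW.drop 23) 92 = true := by decide +kernel

theorem orb2 : orbFold tO (fun g => wordAt SW (Nat.add g 16)) (SW.length - 16) 126 es2 (Nat.shiftLeft (nat_lit 1) (nat_lit 92)) = true := by decide +kernel

theorem L2 : 8 ≤ Nat.card (tb.gp (SW.drop 16)) :=
  Tbl.levelD tb SW hlet 16 23 (by decide) 92 (by decide +kernel) fix2 es2 orb2 1 8 L3 (by decide +kernel)

theorem fix1 : relsOk tO (SW.drop 16) 32 = true := by decide +kernel

theorem orb1 : orbFold tO (fun g => wordAt SW (Nat.add g 6)) (SW.length - 6) 126 es1 (Nat.shiftLeft (nat_lit 1) (nat_lit 32)) = true := by decide +kernel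

theorem L1 : 1000 ≤ Nat.card (tb.gp (SW.drop 6)) :=
  Tbl.levelD tb SW hlet 6 16 (by decide) 32 (by decide +kernel) fix1 es1 orb1 8 1000 L2 (by decide +kernel)

theorem fix0 : relsOk tO (SW.drop 6) 17 = true := by decide +kernel

theorem orb0 : orbFold tO (fun g => wordAt SW (Nat.add g 0)) (SW.length - 0) 126 es0 (Nat.shiftLeft (nat_lit 1) (nat_lit 17)) = true := by decide +kernel

theorem L0 : 126000 ≤ Nat.card (tb.gp (SW.drop 0)) :=
  Tbl.levelD tb SW hlet 0 6 (by decide) 17 (by decide +kernel) fix0 es0 orb0 1000 126000 L1 (by decide +kernel)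

theorem card_PS : Nat.card PS = 126000 := by
  have h := Cfsg.Agent.S0280.result hK 3 (by norm_num)
  have e2 : 5 ^ (3 * (3 - 1) / 2) * ∏ i ∈ Finset.range 3, (if Even i then 5 ^ (i + 1) + 1 else 5 ^ (i + 1) - 1) = 2268000 := by
    decide +kernel
  rw [e2] at h
  have h3 : Nat.gcd 3 (5 + 1) = 3 := by norm_num
  rw [h3] at h
  have h4 : 3 * ((5 + 1) * Nat.card PS) = 2268000 := h
  omega

instance simplePS : IsSimpleGroup PS := Cfsg.Agent.S0283.result hK 3 (by norm_num) (by norm_num)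

/-- The action of the group on sets of vectors. -/
noncomputable abbrev βP : PS →* Equiv.Perm (Y K 3) := β hK hn

/-- An element of the group acting on the lines as a permutation. -/
def Re (a : Equiv.Perm (Fin tb.n)) (k : PS) : Prop := ∀ n : Fin tb.n, βP k (Dt.τ n.val) = Dt.τ (a n).val

theorem Re_one : Re 1 1 := fun n => by
  rw [map_one]
  rfl

theorem Re_mul {a a' : Equiv.Perm (Fin tb.n)} {k k' : PS} (h : Re a k) (h' : Re a' k') : Re (a * a') (k * k') := by
  intro n
  rw [map_mul, Equiv.Perm.mul_apply, Equiv.Perm.mul_apply, h' n]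
  exact h (a' n)

theorem Re_letter {g : ℕ} (hg : g < 6) : Re (tb.perm g) (mkP (Dt.sG (tb.inv g))) := by
  intro n
  have h1 : ((tb.perm g) n).val = tO n.val (tb.inv g) := tb.perm_val hg n
  rw [h1]
  exact Dt.act_τ (tb.hinv g hg).1 n.2

theorem exists_Re : ∀ a ∈ tb.gp SW, ∃ k : PS, Re a k := by
  have hW : ∀ w : List ℕ, (∀ g ∈ w, g < 6) → ∃ k : PS, Re (evalWord tb.perm w) k := by
    intro w hw
    induction w with
    | nil => exact ⟨1, Re_one⟩
    | cons g w ih =>
      obtain ⟨k, hk⟩ := ih (fun a ha => hw a (by simp [ha]))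
      rw [evalWord_cons]
      exact ⟨_, Re_mul (Re_letter (hw g (by simp))) hk⟩
  intro a ha
  induction ha using Subgroup.closure_induction with
  | mem a h =>
    obtain ⟨w, hw, rfl⟩ := h
    exact hW w (hlet w hw)
  | one => exact ⟨1, Re_one⟩
  | mul a b _ _ ha hb =>
    obtain ⟨k₁, h₁⟩ := ha
    obtain ⟨k₂, h₂⟩ := hb
    exact ⟨_, Re_mul h₁ h₂⟩
  | inv a _ ha =>
    obtain ⟨k, h⟩ := ha
    refine ⟨k⁻¹, fun n => ?_⟩
    rw [map_inv, Equiv.Perm.inv_eq_iff_eq, h]
    simp

end Cfsg.Agent.Lib.Conway.U35C
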